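import Cfsg.Agent.Lib.Helper57.OE.Defs

set_option autoImplicit false

namespace Cfsg.Agent.Lib.Helper62.OE

open Cfsg Cfsg.Geo Matrix Cfsg.Agent.Lib.Helper13.Asch Cfsg.Agent.Lib.Helper90.Sp
  Cfsg.Agent.Lib.Helper57.OE
open scoped Kronecker MatrixGroups

variable {ι : Type} [Fintype ι] [DecidableEq ι] {F : Type*} [Field F] {Q : (ι → F) → F}

namespace T7

lemma mul_formula {J : Matrix ι ι F} {d : F} (hJJ : J * J = d • 1) (a b a' b' : F) :
    (a • (1 : Matrix ι ι F) + b • J) * (a' • (1 : Matrix ι ι F) + b' • J) =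
      (a * a' + d * b * b') • (1 : Matrix ι ι F) + (a * b' + b * a') • J := by
  simp only [add_mul, mul_add, Matrix.smul_mul, Matrix.mul_smul, one_mul, mul_one, hJJ, smul_smul]
  module

/-- the subalgebra `F[J]` -/
def KJ (J : Matrix ι ι F) (d : F) (hJJ : J * J = d • 1) : Subalgebra F (Matrix ι ι F) where
  carrier := {x | ∃ a b : F, x = a • (1 : Matrix ι ι F) + b • J}
  mul_mem' := by
    rintro _ _ ⟨a, b, rfl⟩ ⟨a', b', rfl⟩
    exact ⟨_, _, mul_formula hJJ a b a' b'⟩
  add_mem' := by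
    rintro _ _ ⟨a, b, rfl⟩ ⟨a', b', rfl⟩
    exact ⟨a + a', b + b', by module⟩
  algebraMap_mem' := by
    intro r
    exact ⟨r, 0, by rw [Algebra.algebraMap_eq_smul_one, zero_smul, add_zero]⟩

lemma mem_KJ {J : Matrix ι ι F} {d : F} {hJJ : J * J = d • 1} {x : Matrix ι ι F} :
    x ∈ KJ J d hJJ ↔ ∃ a b : F, x = a • (1 : Matrix ι ι F) + b • J := Iff.rfl

lemma smul_one_inj [Nonempty ι] {a b : F} (h : a • (1 : Matrix ι ι F) = b • 1) : a = b := by
  obtain ⟨i⟩ := ‹Nonempty ι›
  have := congrFun (congrFun h i) i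
  simpa using this

lemma indep [Nonempty ι] {J : Matrix ι ι F} {d : F} (hJJ : J * J = d • 1) (hd : ¬ IsSquare d)
    (a b : F) (h : a • (1 : Matrix ι ι F) + b • J = 0) : a = 0 ∧ b = 0 := by
  have hb : b = 0 := by
    by_contra hb
    apply hd
    have hJ : J = (-a / b) • (1 : Matrix ι ι F) := by
      have h1 : b • J = (-a) • (1 : Matrix ι ι F) := by
        rw [neg_smul]
        exact eq_neg_of_add_eq_zero_right h
      calc J = b⁻¹ • (b • J) := by rw [smul_smul, inv_mul_cancel₀ hb, one_smul]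
        _ = _ := by rw [h1, smul_smul]; congr 1; field_simp
    refine ⟨-a / b, ?_⟩
    rw [hJ, Matrix.smul_mul, Matrix.mul_smul, one_mul, smul_smul] at hJJ
    exact (smul_one_inj hJJ).symm
  subst hb
  rw [zero_smul, add_zero] at h
  refine ⟨?_, rfl⟩
  apply smul_one_inj (ι := ι)
  rw [h, zero_smul]

end T7

open T7 in
theorem rfield_of_sqrtJ [Nonempty ι] {H : Subgroup (GL ι F)} (h : SqrtJ H) :
    ∃ K : Subalgebra F (Matrix ι ι F), IsFieldSubalgebra 2 K ∧ H ≤ subalgebraNormalizer K := by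
  obtain ⟨J, d, hJJ, hd, hsign⟩ := h
  refine ⟨KJ J d hJJ, ⟨?_, ?_, ?_⟩, ?_⟩
  · rintro _ ⟨a, b, rfl⟩ _ ⟨a', b', rfl⟩
    rw [mul_formula hJJ, mul_formula hJJ]
    congr 2 <;> ring
  · rintro _ ⟨a, b, rfl⟩ hx
    have hN : a * a - d * b * b ≠ 0 := by
      intro hN
      by_cases hb : b = 0
      · subst hb
        have ha : a = 0 := by
          have : a * a = 0 := by linear_combination hN
          exact mul_self_eq_zero.1 this
        apply hx
        rw [ha, zero_smul, zero_smul, add_zero]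
      · apply hd
        refine ⟨a / b, ?_⟩
        field_simp
        linear_combination -hN
    refine ⟨_, ⟨(a * a - d * b * b)⁻¹ * a, -((a * a - d * b * b)⁻¹ * b), rfl⟩, ?_⟩
    rw [mul_formula hJJ]
    have e1 : a * ((a * a - d * b * b)⁻¹ * a) + d * b * -((a * a - d * b * b)⁻¹ * b) = 1 := by
      calc _ = (a * a - d * b * b) * (a * a - d * b * b)⁻¹ := by ring
        _ = 1 := mul_inv_cancel₀ hN
    have e2 : a * -((a * a - d * b * b)⁻¹ * b) + b * ((a * a - d * b * b)⁻¹ * a) = 0 := by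
      ring
    rw [e1, e2, one_smul, zero_smul, add_zero]
  · have hli : LinearIndependent F ![(1 : Matrix ι ι F), J] := by
      rw [LinearIndependent.pair_iff]
      intro s t hst
      exact indep hJJ hd s t hst
    have hspan : Subalgebra.toSubmodule (KJ J d hJJ) =
        Submodule.span F (Set.range ![(1 : Matrix ι ι F), J]) := by
      ext x
      rw [Subalgebra.mem_toSubmodule, mem_KJ]
      simp only [Matrix.range_cons, Matrix.range_empty, Set.union_empty, Set.singleton_union]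
      rw [Submodule.mem_span_pair]
      constructor
      · rintro ⟨a, b, rfl⟩
        exact ⟨a, b, rfl⟩
      · rintro ⟨a, b, rfl⟩
        exact ⟨a, b, rfl⟩
    have h1 := finrank_span_eq_card hli
    rw [← hspan] at h1
    simpa using h1
  · have hfwd : ∀ g ∈ H, ∀ k ∈ KJ J d hJJ,
        (g : Matrix ι ι F) * k * ((g⁻¹ : GL ι F) : Matrix ι ι F) ∈ KJ J d hJJ := by
      rintro g hg _ ⟨a, b, rfl⟩
      have h2 : (g : Matrix ι ι F) * ((g⁻¹ : GL ι F) : Matrix ι ι F) = 1 := by
        rw [← Units.val_mul, mul_inv_cancel, Units.val_one]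
      have e : (g : Matrix ι ι F) * (a • (1 : Matrix ι ι F) + b • J) *
          ((g⁻¹ : GL ι F) : Matrix ι ι F) = a • (1 : Matrix ι ι F) +
            b • ((g : Matrix ι ι F) * J * ((g⁻¹ : GL ι F) : Matrix ι ι F)) := by
        rw [mul_add, add_mul, Matrix.mul_smul, Matrix.mul_smul, Matrix.smul_mul, Matrix.smul_mul,
          mul_one, h2]
      rw [e]
      rcases hsign g hg with e' | e'
      · rw [e']
        exact ⟨a, b, rfl⟩
      · rw [e']
        exact ⟨a, -b, by rw [smul_neg, neg_smul]⟩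
    intro g hg k
    constructor
    · exact hfwd g hg k
    · intro hk
      have := hfwd g⁻¹ (H.inv_mem hg) _ hk
      rw [inv_inv] at this
      have h1 : ((g⁻¹ : GL ι F) : Matrix ι ι F) * (g : Matrix ι ι F) = 1 := by
        rw [← Units.val_mul, inv_mul_cancel, Units.val_one]
      have e : ((g⁻¹ : GL ι F) : Matrix ι ι F) *
          ((g : Matrix ι ι F) * k * ((g⁻¹ : GL ι F) : Matrix ι ι F)) * (g : Matrix ι ι F) = k := by
        calc _ = (((g⁻¹ : GL ι F) : Matrix ι ι F) * (g : Matrix ι ι F)) * k *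
              (((g⁻¹ : GL ι F) : Matrix ι ι F) * (g : Matrix ι ι F)) := by
              simp only [mul_assoc]
          _ = k := by rw [h1, one_mul, mul_one]
      rwa [e] at this

end Cfsg.Agent.Lib.Helper62.OE
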