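import Cfsg.Agent.Lib.Helper57.OE.Defs
import Cfsg.Agent.Lib.Helper96.Asch.L0c

set_option autoImplicit false

namespace Cfsg.Agent.Lib.Helper62.OE

open Cfsg Cfsg.Geo Matrix Cfsg.Agent.Lib.Helper13.Asch Cfsg.Agent.Lib.Helper90.Sp
  Cfsg.Agent.Lib.Helper57.OE
open scoped Kronecker MatrixGroups

variable {ι : Type} [Fintype ι] [DecidableEq ι] {F : Type*} [Field F] {Q : (ι → F) → F}

namespace K3

/-- `h` commutes with `J` up to the scalar `ε` -/
def Sg (J : Matrix ι ι F) (h : GL ι F) (ε : F) : Prop :=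
  (h : Matrix ι ι F) * J = ε • (J * (h : Matrix ι ι F))

lemma Sg.mul {J : Matrix ι ι F} {h k : GL ι F} {ε δ : F} (hh : Sg J h ε) (hk : Sg J k δ) :
    Sg J (h * k) (ε * δ) := by
  unfold Sg at *
  rw [Units.val_mul, mul_assoc, hk, Matrix.mul_smul, ← mul_assoc, hh, Matrix.smul_mul, smul_smul,
    mul_assoc, mul_comm]

lemma Sg.inv {J : Matrix ι ι F} {h : GL ι F} {ε : F} (hh : Sg J h ε) (hε : ε * ε = 1) :
    Sg J h⁻¹ ε := by
  unfold Sg at *
  have h1 : ((h⁻¹ : GL ι F) : Matrix ι ι F) * (h : Matrix ι ι F) = 1 := by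
    rw [← Units.val_mul, inv_mul_cancel, Units.val_one]
  have h2 : (h : Matrix ι ι F) * ((h⁻¹ : GL ι F) : Matrix ι ι F) = 1 := by
    rw [← Units.val_mul, mul_inv_cancel, Units.val_one]
  have h3 : J * (h : Matrix ι ι F) = ε • ((h : Matrix ι ι F) * J) := by
    rw [hh, smul_smul, hε, one_smul]
  calc ((h⁻¹ : GL ι F) : Matrix ι ι F) * J
      = ((h⁻¹ : GL ι F) : Matrix ι ι F) * (J * (h : Matrix ι ι F)) *
          ((h⁻¹ : GL ι F) : Matrix ι ι F) := by
        rw [mul_assoc, mul_assoc, h2, mul_one]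
    _ = ε • (J * ((h⁻¹ : GL ι F) : Matrix ι ι F)) := by
        rw [h3, Matrix.mul_smul, Matrix.smul_mul, ← mul_assoc, h1, one_mul]

/-- the centraliser of `J` -/
def cen (J : Matrix ι ι F) : Subgroup (GL ι F) where
  carrier := {h | Sg J h 1}
  mul_mem' := fun {a b} ha hb => by
    have := Sg.mul ha hb
    rwa [one_mul] at this
  one_mem' := by
    show Sg J 1 1
    unfold Sg
    simp
  inv_mem' := fun {a} ha => Sg.inv ha (one_mul 1)

end K3

open K3 in
theorem no_sqrtJ_of_perfect [Nonempty ι] {M : Subgroup (GL ι F)} (hperf : ⁅M, M⁆ = M)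
    (henv : env M = ⊤) : ¬ SqrtJ M := by
  rintro ⟨J, d, hJJ, hd, hsign⟩
  have hsg : ∀ h ∈ M, ∃ ε : F, ε * ε = 1 ∧ Sg J h ε := by
    intro h hh
    have h1 : ((h⁻¹ : GL ι F) : Matrix ι ι F) * (h : Matrix ι ι F) = 1 := by
      rw [← Units.val_mul, inv_mul_cancel, Units.val_one]
    have h2 : (h : Matrix ι ι F) * J = (h : Matrix ι ι F) * J * ((h⁻¹ : GL ι F) : Matrix ι ι F) *
        (h : Matrix ι ι F) := by
      rw [mul_assoc _ _ (h : Matrix ι ι F), h1, mul_one]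
    rcases hsign h hh with e | e
    · refine ⟨1, one_mul 1, ?_⟩
      unfold Sg
      rw [h2, e, one_smul]
    · refine ⟨-1, by ring, ?_⟩
      unfold Sg
      rw [h2, e, neg_smul, one_smul, neg_mul]
  have hle : M ≤ cen J := by
    rw [← hperf, Subgroup.commutator_le]
    intro a ha b hb
    obtain ⟨ε, hε, h1⟩ := hsg a ha
    obtain ⟨δ, hδ, h2⟩ := hsg b hb
    have h3 := ((h1.mul h2).mul (h1.inv hε)).mul (h2.inv hδ)
    have h4 : ε * δ * ε * δ = 1 := by
      calc ε * δ * ε * δ = (ε * ε) * (δ * δ) := by ring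
        _ = 1 := by rw [hε, hδ, one_mul]
    rw [h4] at h3
    exact h3
  obtain ⟨c, hc⟩ := (Cfsg.Agent.Lib.Helper96.Asch.absIrr_of_env_top henv).2 J (by
    rintro _ ⟨x, hx, rfl⟩
    have : Sg J x 1 := hle hx
    unfold Sg at this
    rw [one_smul] at this
    exact this.symm)
  apply hd
  refine ⟨c, ?_⟩
  rw [hc, Matrix.smul_mul, Matrix.mul_smul, one_mul, smul_smul] at hJJ
  obtain ⟨i⟩ := ‹Nonempty ι›
  have := congrFun (congrFun hJJ i) i
  simpa using this.symm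

end Cfsg.Agent.Lib.Helper62.OE
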