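import Cfsg.Agent.Lib.Helper57.OE.Defs

set_option autoImplicit false

namespace Cfsg.Agent.Lib.Helper62.OE

open Cfsg Cfsg.Geo Matrix Cfsg.Agent.Lib.Helper13.Asch Cfsg.Agent.Lib.Helper90.Sp
  Cfsg.Agent.Lib.Helper57.OE
open scoped Kronecker MatrixGroups

variable {ι : Type} [Fintype ι] [DecidableEq ι] {F : Type*} [Field F] {Q : (ι → F) → F}

theorem plus_of_slice {b : ℕ} (e : ι ≃ Fin 2 × Fin b) (P : GL ι F) (u : Fin 2 → F) (hu : u ≠ 0)
    (h : ∀ y : Fin b → F, Q (pureV e P u y) = 0) : IsPlusTypeOn Q ⊤ := by
  let L : (Fin b → F) →ₗ[F] (ι → F) :=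
    { toFun := fun y => pureV e P u y
      map_add' := by
        intro y z
        unfold pureV
        rw [← Matrix.mulVec_add]
        congr 1
        funext k
        simp [mul_add]
      map_smul' := by
        intro c y
        unfold pureV
        rw [RingHom.id_apply, ← Matrix.mulVec_smul]
        congr 1
        funext k
        simp [mul_left_comm] }
  have hL : ∀ y, L y = pureV e P u y := fun y => rfl
  obtain ⟨i0, hi0⟩ : ∃ i, u i ≠ 0 := by
    by_contra hcon
    push Not at hcon
    exact hu (funext hcon)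
  have hinj : Function.Injective L := by
    intro y z hyz
    rw [hL, hL] at hyz
    unfold pureV at hyz
    have h1 := Matrix.mulVec_injective_of_isUnit P.isUnit hyz
    funext j
    have h2 := congrFun h1 (e.symm (i0, j))
    simp only [Function.comp, Equiv.apply_symm_apply] at h2
    exact mul_left_cancel₀ hi0 h2
  refine ⟨LinearMap.range L, le_top, ?_, ?_⟩
  · rintro _ ⟨y, rfl⟩
    exact h y
  · rw [LinearMap.finrank_range_of_inj hinj, finrank_top, Module.finrank_fin_fun,
      Module.finrank_fintype_fun_eq_card, Fintype.card_congr e]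
    simp

end Cfsg.Agent.Lib.Helper62.OE
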