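import Cfsg.Agent.Lib.Helper57.OE.Defs
import Cfsg.Agent.Lib.Helper99.Sp.T3b
import Cfsg.Agent.Lib.Helper62.OE.T5

set_option autoImplicit false

namespace Cfsg.Agent.Lib.Helper62.OE

open Cfsg Cfsg.Geo Matrix Cfsg.Agent.Lib.Helper13.Asch Cfsg.Agent.Lib.Helper90.Sp
  Cfsg.Agent.Lib.Helper57.OE Cfsg.Agent.Lib.Helper99.Sp
open scoped Kronecker MatrixGroups

variable {ι : Type} [Fintype ι] [DecidableEq ι] {F : Type*} [Field F] {Q : (ι → F) → F}

namespace T6

lemma tensGram_pure' {f : (ι → F) → (ι → F) → F} {a b : ℕ} {e : ι ≃ Fin a × Fin b} {P : GL ι F}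
    {G₁ : Matrix (Fin a) (Fin a) F} {G₂ : Matrix (Fin b) (Fin b) F} (h : TensGram f e P G₁ G₂)
    (x x' : Fin a → F) (y y' : Fin b → F) :
    f (pureV e P x y) (pureV e P x' y') = (x ⬝ᵥ (G₁ *ᵥ x')) * (y ⬝ᵥ (G₂ *ᵥ y')) := by
  have h1 := h (fun p => x p.1 * y p.2) (fun p => x' p.1 * y' p.2)
  unfold pureV
  rw [h1]
  simp only [formOfGram, Fintype.sum_prod_type, Matrix.kroneckerMap_apply, id]
  have e1 : x ⬝ᵥ (G₁ *ᵥ x') = ∑ i, ∑ k, x i * G₁ i k * x' k := by
    simp only [dotProduct, mulVec, Finset.mul_sum, mul_assoc]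
  have e2 : y ⬝ᵥ (G₂ *ᵥ y') = ∑ i, ∑ k, y i * G₂ i k * y' k := by
    simp only [dotProduct, mulVec, Finset.mul_sum, mul_assoc]
  rw [e1, e2, Finset.sum_mul_sum]
  apply Finset.sum_congr rfl; intro i _
  apply Finset.sum_congr rfl; intro j _
  rw [Finset.sum_mul_sum]
  apply Finset.sum_congr rfl; intro k _
  apply Finset.sum_congr rfl; intro l _
  ring

lemma two_mul_Q' (hQ : IsNondegenerateQuadraticForm Q) (v : ι → F) :
    2 * Q v = QuadraticMap.polar Q v v := by
  unfold QuadraticMap.polar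
  have : v + v = (2 : F) • v := by rw [two_smul]
  rw [this, hQ.smul]
  ring

/-- a singular vector of a binary form of square discriminant -/
lemma exists_sing {G : Matrix (Fin 2) (Fin 2) F} (hs : Gᵀ = G) {s : F} (hd : -G.det = s * s) :
    ∃ u : Fin 2 → F, u ≠ 0 ∧ u ⬝ᵥ (G *ᵥ u) = 0 := by
  have h10 := sym10 hs
  rw [Matrix.det_fin_two, h10] at hd
  by_cases h0 : G 0 0 = 0
  · refine ⟨![1, 0], ?_, ?_⟩
    · intro h
      have := congrFun h 0
      simp at this
    · simp [dotProduct, mulVec, Fin.sum_univ_two, h0]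
  · refine ⟨![-G 0 1 + s, G 0 0], ?_, ?_⟩
    · intro h
      have := congrFun h 1
      simp at this
      exact h0 this
    · simp only [dotProduct, mulVec, Fin.sum_univ_two, h10, Matrix.cons_val_zero,
        Matrix.cons_val_one]
      linear_combination (-G 0 0) * hd

end T6

open T6 in
theorem o_tensor_two [Fintype F] [Nonempty ι] (h2 : (2 : F) ≠ 0)
    (hQ : IsNondegenerateQuadraticForm Q) {H : Subgroup (GL ι F)}
    (hH : FixesQuadForm (matrixSet H) Q) {b : ℕ} (e : ι ≃ Fin 2 × Fin b) (P : GL ι F)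
    {G₁ : Matrix (Fin 2) (Fin 2) F} {G₂ : Matrix (Fin b) (Fin b) F}
    (hG : TensGram (QuadraticMap.polar Q) e P G₁ G₂) (h1 : IsUnit G₁.det) (h2' : IsUnit G₂.det)
    (hs1 : G₁ᵀ = G₁) (hHt : H ≤ tensorProductSubgroup 2 b e P) :
    IsPlusTypeOn Q ⊤ ∨ SqrtJ H := by
  by_cases hsq : IsSquare (-G₁.det)
  · left
    obtain ⟨s, hs⟩ := hsq
    obtain ⟨u, hu0, hu⟩ := exists_sing hs1 hs
    apply plus_of_slice e P u hu0
    intro y
    have h3 := two_mul_Q' hQ (pureV e P u y)
    rw [tensGram_pure' hG, hu, zero_mul] at h3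
    rcases mul_eq_zero.1 h3 with h4 | h4
    · exact absurd h4 h2
    · exact h4
  · right
    set K : Matrix (Fin 2 × Fin b) (Fin 2 × Fin b) F :=
      kap G₁ ⊗ₖ (1 : Matrix (Fin b) (Fin b) F) with hK
    set k : Matrix ι ι F := cj e P K with hkdef
    have hk : k * k = (-G₁.det) • 1 := by
      rw [hkdef, cj_mul, hK, ← Matrix.mul_kronecker_mul, Matrix.one_mul, kap_sq hs1,
        Matrix.smul_kronecker, Matrix.one_kronecker_one, cj_smul, cj_one]
    refine ⟨k, -G₁.det, hk, hsq, ?_⟩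
    intro h hh
    have hfix : ∀ u v, QuadraticMap.polar Q ((h : Matrix ι ι F) *ᵥ u) ((h : Matrix ι ι F) *ᵥ v) =
        QuadraticMap.polar Q u v := by
      intro u v
      have hq := hH (h : Matrix ι ι F) ⟨h, hh, rfl⟩
      unfold QuadraticMap.polar
      rw [← Matrix.mulVec_add, hq, hq, hq]
    obtain ⟨x, y, c, hxy, hc1, _⟩ := tens_similitude e P hG h1 h2' h (hHt hh) hfix
    have hx : IsUnit (x : Matrix (Fin 2) (Fin 2) F).det :=
      (Matrix.isUnit_iff_isUnit_det _).1 x.isUnit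
    have hcj : (h : Matrix ι ι F) = cj e P ((x : Matrix _ _ F) ⊗ₖ (y : Matrix _ _ F)) := hxy
    set m : F := (c : F) / (x : Matrix (Fin 2) (Fin 2) F).det with hm
    have hconj := kap_conj hs1 h1 hx hc1
    have hhk : (h : Matrix ι ι F) * k = m • (k * (h : Matrix ι ι F)) := by
      rw [hcj, hkdef, cj_mul, cj_mul, hK, ← Matrix.mul_kronecker_mul, ← Matrix.mul_kronecker_mul,
        Matrix.mul_one, Matrix.one_mul, hconj, Matrix.smul_kronecker, cj_smul]
    have hi2 : (h : Matrix ι ι F) * ((h⁻¹ : GL ι F) : Matrix ι ι F) = 1 := by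
      rw [← Units.val_mul, mul_inv_cancel, Units.val_one]
    have hconj2 : (h : Matrix ι ι F) * k * ((h⁻¹ : GL ι F) : Matrix ι ι F) = m • k := by
      rw [hhk, Matrix.smul_mul, mul_assoc, hi2, mul_one]
    have hmm : m * m = 1 := by
      have e1 : ((h : Matrix ι ι F) * k * ((h⁻¹ : GL ι F) : Matrix ι ι F)) *
          ((h : Matrix ι ι F) * k * ((h⁻¹ : GL ι F) : Matrix ι ι F)) = (-G₁.det) • 1 := by
        have hi1 : ((h⁻¹ : GL ι F) : Matrix ι ι F) * (h : Matrix ι ι F) = 1 := by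
          rw [← Units.val_mul, inv_mul_cancel, Units.val_one]
        calc _ = (h : Matrix ι ι F) * k * (((h⁻¹ : GL ι F) : Matrix ι ι F) * (h : Matrix ι ι F)) * k *
              ((h⁻¹ : GL ι F) : Matrix ι ι F) := by simp only [mul_assoc]
          _ = (h : Matrix ι ι F) * (k * k) * ((h⁻¹ : GL ι F) : Matrix ι ι F) := by
              rw [hi1, mul_one]; simp only [mul_assoc]
          _ = _ := by rw [hk, Matrix.mul_smul, Matrix.smul_mul, mul_one, hi2]
      rw [hconj2, Matrix.smul_mul, Matrix.mul_smul, hk, smul_smul, smul_smul] at e1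
      obtain ⟨i⟩ := ‹Nonempty ι›
      have e2 := congrFun (congrFun e1 i) i
      simp only [Matrix.smul_apply, Matrix.one_apply_eq, smul_eq_mul, mul_one] at e2
      have hd0 : -G₁.det ≠ 0 := neg_ne_zero.2 h1.ne_zero
      exact mul_right_cancel₀ hd0 (by rw [e2, one_mul])
    have : (m - 1) * (m + 1) = 0 := by linear_combination hmm
    rcases mul_eq_zero.1 this with e | e
    · left
      rw [hconj2, sub_eq_zero.1 e, one_smul]
    · right
      rw [hconj2, eq_neg_of_add_eq_zero_left e, neg_smul, one_smul]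

end Cfsg.Agent.Lib.Helper62.OE
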