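import Cfsg.Agent.Lib.Helper57.OE.Defs

set_option autoImplicit false

namespace Cfsg.Agent.Lib.Helper62.OE

open Cfsg Cfsg.Geo Matrix Cfsg.Agent.Lib.Helper13.Asch Cfsg.Agent.Lib.Helper90.Sp
  Cfsg.Agent.Lib.Helper57.OE
open scoped Kronecker MatrixGroups

variable {ι : Type} [Fintype ι] [DecidableEq ι] {F : Type*} [Field F] {Q : (ι → F) → F}

theorem no_alt_three (G : Matrix (Fin 3) (Fin 3) F) (h : IsUnit G.det) (hs : Gᵀ = -G)
    (hd : ∀ i, G i i = 0) : False := by
  have e : ∀ i j, G j i = - G i j := fun i j => congrFun (congrFun hs i) j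
  have h0 : G.det = 0 := by
    rw [Matrix.det_fin_three, hd 0, hd 1, hd 2, e 0 1, e 0 2, e 1 2]
    ring
  rw [h0] at h
  exact not_isUnit_zero h

end Cfsg.Agent.Lib.Helper62.OE
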