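import Cfsg.Agent.Lib.Helper99.Sp.T3b
import Cfsg.Agent.Lib.Helper37.OE.YK1

set_option autoImplicit false
set_option linter.unusedSectionVars false
set_option linter.unusedSimpArgs false

/-! # Omega12+ (S5871): piece Y4n -/

namespace Cfsg.Agent.Lib.Helper62.OE

open Cfsg Cfsg.Geo Matrix
open Cfsg.Agent.Lib.Helper99.Sp
open Cfsg.Agent.Lib.Helper37.OE (Om4)
open scoped Kronecker MatrixGroups commutatorElement

variable {F : Type*} [Field F]

namespace Y4n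

/-- hyperbolic frame for a symmetric nondegenerate bilinear map with a totally isotropic plane -/
theorem exists_frame {V : Type*} [AddCommGroup V] [Module F V] (h2 : (2 : F) ≠ 0)
    (B : V → V → F) (hal : ∀ x y z, B (x + y) z = B x z + B y z)
    (hsl : ∀ (c : F) x z, B (c • x) z = c * B x z) (hsym : ∀ x y, B x y = B y x)
    (hnd : ∀ u, (∀ x, B u x = 0) → u = 0)
    (u1 u2 : V) (hind : ∀ s t : F, s • u1 + t • u2 = 0 → s = 0 ∧ t = 0)
    (h11 : B u1 u1 = 0) (h12 : B u1 u2 = 0) (h22 : B u2 u2 = 0) :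
    ∃ v1 v2 : V, B u1 v1 = 1 ∧ B u2 v1 = 0 ∧ B u1 v2 = 0 ∧ B u2 v2 = 1 ∧ B v1 v1 = 0 ∧
      B v1 v2 = 0 ∧ B v2 v2 = 0 := by
  have har : ∀ x y z, B x (y + z) = B x y + B x z := by
    intro x y z; rw [hsym, hal, hsym y, hsym z]
  have hsr : ∀ (c : F) x z, B x (c • z) = c * B x z := by
    intro c x z; rw [hsym, hsl, hsym z]
  have hex1 : ∀ u, u ≠ 0 → ∃ z, B u z = 1 := by
    intro u hu
    by_contra hcon
    push Not at hcon
    apply hu
    apply hnd
    intro x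
    by_contra hx
    apply hcon ((B u x)⁻¹ • x)
    rw [hsr, inv_mul_cancel₀ hx]
  have hex2 : ∀ u u', u ≠ 0 → (∀ c : F, u' ≠ c • u) → ∃ w, B u w = 0 ∧ B u' w = 1 := by
    intro u u' hu hu'
    obtain ⟨z, hz⟩ := hex1 u hu
    by_contra hcon
    push Not at hcon
    have h0 : ∀ w, B u w = 0 → B u' w = 0 := by
      intro w hw
      by_contra hne
      apply hcon ((B u' w)⁻¹ • w)
      · rw [hsr, hw, mul_zero]
      · rw [hsr, inv_mul_cancel₀ hne]
    apply hu' (B u' z)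
    have : u' + (-(B u' z)) • u = 0 := by
      apply hnd
      intro x
      have h1 := h0 (x + (-(B u x)) • z) (by rw [har, hsr, hz]; ring)
      rw [har, hsr] at h1
      rw [hal, hsl]
      linear_combination h1
    rw [neg_smul] at this
    exact eq_of_sub_eq_zero (by rw [sub_eq_add_neg]; exact this)
  have hu1 : u1 ≠ 0 := by
    rintro rfl
    exact one_ne_zero (hind 1 0 (by simp)).1
  have hu2 : u2 ≠ 0 := by
    rintro rfl
    exact one_ne_zero (hind 0 1 (by simp)).2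
  have hn21 : ∀ c : F, u2 ≠ c • u1 := by
    intro c h
    exact one_ne_zero (hind (-c) 1 (by rw [h]; module)).2
  have hn12 : ∀ c : F, u1 ≠ c • u2 := by
    intro c h
    exact one_ne_zero (hind 1 (-c) (by rw [h]; module)).1
  obtain ⟨w2, hw2a, hw2b⟩ := hex2 u1 u2 hu1 hn21
  obtain ⟨w1, hw1a, hw1b⟩ := hex2 u2 u1 hu2 hn12
  have h21 : B u2 u1 = 0 := by rw [hsym, h12]
  refine ⟨w1 + (-(B w1 w1 / 2)) • u1 + (-(B w1 w2)) • u2, w2 + (-(B w2 w2 / 2)) • u2, ?_, ?_, ?_,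
    ?_, ?_, ?_, ?_⟩
  · simp only [har, hsr, h11, h12, hw1b]; ring
  · simp only [har, hsr, h21, h22, hw1a]; ring
  · simp only [har, hsr, h12, hw2a]; ring
  · simp only [har, hsr, h22, hw2b]; ring
  · simp only [har, hsr, hal, hsl, h11, h12, h21, h22, hw1a, hw1b, hsym w1 u1, hsym w1 u2]
    field_simp
    ring
  · simp only [har, hsr, hal, hsl, h11, h12, h21, h22, hw1a, hw1b, hw2a, hw2b, hsym w1 u1,
      hsym w1 u2]
    ring
  · simp only [har, hsr, hal, hsl, h22, hw2b, hsym w2 u2]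
    field_simp
    ring

end Y4n

/-- Y4n -/
theorem om4_normal_form [Fintype F] (h2 : (2 : F) ≠ 0) (G : Matrix (Fin 4) (Fin 4) F) (hs : Gᵀ = G)
    (hu : IsUnit G.det)
    (hplus : ∃ U : Submodule F (Fin 4 → F), Module.finrank F U = 2 ∧ ∀ u ∈ U, u ⬝ᵥ (G *ᵥ u) = 0) :
    ∃ R : GL (Fin 4) F, (R : Matrix _ _ F)ᵀ * G * (R : Matrix _ _ F) =
      Matrix.reindex finProdFinEquiv finProdFinEquiv (Om4 F) := by
  obtain ⟨U, hU2, hU⟩ := hplus
  have hal : ∀ x y z : Fin 4 → F, (x + y) ⬝ᵥ (G *ᵥ z) = x ⬝ᵥ (G *ᵥ z) + y ⬝ᵥ (G *ᵥ z) :=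
    fun x y z => add_dotProduct _ _ _
  have hsl : ∀ (c : F) (x z : Fin 4 → F), (c • x) ⬝ᵥ (G *ᵥ z) = c * x ⬝ᵥ (G *ᵥ z) :=
    fun c x z => by rw [smul_dotProduct, smul_eq_mul]
  have hsym : ∀ x y : Fin 4 → F, x ⬝ᵥ (G *ᵥ y) = y ⬝ᵥ (G *ᵥ x) := by
    intro x y
    rw [Matrix.dotProduct_mulVec, ← hs, Matrix.vecMul_transpose, hs, dotProduct_comm]
  have hnd : ∀ u : Fin 4 → F, (∀ x, u ⬝ᵥ (G *ᵥ x) = 0) → u = 0 := by
    intro u h
    have h1 : G *ᵥ u = 0 := by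
      apply dotProduct_eq_zero
      intro w
      rw [dotProduct_comm, hsym]
      exact h w
    exact Matrix.eq_zero_of_mulVec_eq_zero hu.ne_zero h1
  obtain ⟨f, hf⟩ := exists_linearIndependent_of_le_finrank (le_of_eq hU2.symm)
  have hf' := hf.map' U.subtype (Submodule.ker_subtype _)
  rw [Fintype.linearIndependent_iff] at hf'
  have hind : ∀ s t : F, s • (f 0 : Fin 4 → F) + t • (f 1 : Fin 4 → F) = 0 → s = 0 ∧ t = 0 := by
    intro s t h
    have := hf' ![s, t] (by rw [Fin.sum_univ_two]; simpa using h)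
    exact ⟨this 0, this 1⟩
  have h11 := hU _ (f 0).2
  have h22 := hU _ (f 1).2
  have h12 : (f 0 : Fin 4 → F) ⬝ᵥ (G *ᵥ (f 1 : Fin 4 → F)) = 0 := by
    have h3 := hU _ (U.add_mem (f 0).2 (f 1).2)
    rw [hal, Matrix.mulVec_add, dotProduct_add, dotProduct_add, h11, h22,
      hsym (f 1 : Fin 4 → F) (f 0 : Fin 4 → F)] at h3
    have : (2 : F) * ((f 0 : Fin 4 → F) ⬝ᵥ (G *ᵥ (f 1 : Fin 4 → F))) = 0 := by
      linear_combination h3
    exact (mul_eq_zero.1 this).resolve_left h2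
  obtain ⟨v1, v2, a1, a2, a3, a4, a5, a6, a7⟩ := Y4n.exists_frame h2
    (fun x y : Fin 4 → F => x ⬝ᵥ (G *ᵥ y)) hal hsl hsym hnd _ _ hind h11 h12 h22
  set u1 : Fin 4 → F := (f 0 : Fin 4 → F)
  set u2 : Fin 4 → F := (f 1 : Fin 4 → F)
  let r : Fin 4 → (Fin 4 → F) := ![u1, u2, -v2, v1]
  let R : Matrix (Fin 4) (Fin 4) F := Matrix.of fun a b => r b a
  have hR : ∀ i j, (Rᵀ * G * R) i j = r i ⬝ᵥ (G *ᵥ r j) := by
    intro i j
    rw [Matrix.mul_assoc]
    rfl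
  have e0 : (finProdFinEquiv.symm (0 : Fin 4) : Fin 2 × Fin 2) = (0, 0) := by decide
  have e1 : (finProdFinEquiv.symm (1 : Fin 4) : Fin 2 × Fin 2) = (0, 1) := by decide
  have e2 : (finProdFinEquiv.symm (2 : Fin 4) : Fin 2 × Fin 2) = (1, 0) := by decide
  have e3 : (finProdFinEquiv.symm (3 : Fin 4) : Fin 2 × Fin 2) = (1, 1) := by decide
  have hmain : Rᵀ * G * R = Matrix.reindex finProdFinEquiv finProdFinEquiv (Om4 F) := by
    ext i j
    rw [hR]
    simp only [Matrix.reindex_apply, Matrix.submatrix_apply]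
    fin_cases i <;> fin_cases j <;>
      simp [r, e0, e1, e2, e3, Om4, JJ, Matrix.kroneckerMap_apply, Matrix.mulVec_neg, h11, h12, h22,
        a1, a2, a3, a4, a5, a6, a7, hsym u2 u1, hsym v1 u1, hsym v1 u2, hsym v2 u1, hsym v2 u2,
        hsym v2 v1]
  have hdet : R.det ≠ 0 := by
    intro h0
    have h3 := congrArg Matrix.det hmain
    rw [Matrix.det_mul, Matrix.det_mul, h0, mul_zero, Matrix.det_reindex_self] at h3
    have h4 : (Om4 F).det = 1 := by
      show (JJ F ⊗ₖ JJ F).det = 1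
      rw [Matrix.det_kronecker]
      simp [JJ, Matrix.det_fin_two]
    rw [h4] at h3
    exact zero_ne_one h3
  exact ⟨Matrix.GeneralLinearGroup.mkOfDetNeZero R hdet, hmain⟩

end Cfsg.Agent.Lib.Helper62.OE
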