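import Cfsg.Agent.Lib.Helper99.Sp.T3b
import Cfsg.Agent.Lib.Helper35.Asch.L6
import Cfsg.Agent.Lib.Helper37.OE.YK1

set_option autoImplicit false
set_option linter.unusedSectionVars false

/-! # Omega12+ (S5871): piece YK5 -/

namespace Cfsg.Agent.Lib.Helper62.OE

open Cfsg Cfsg.Geo Matrix Cfsg.Agent.Lib.Helper13.Asch
open Cfsg.Agent.Lib.Helper99.Sp
open Cfsg.Agent.Lib.Helper37.OE (Om4)
open scoped Kronecker MatrixGroups commutatorElement

variable {F : Type*} [Field F]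

/-- the form `JJ ⊗ JJ` transformed by a Kronecker product -/
theorem om4_kron (g c : Matrix (Fin 2) (Fin 2) F) :
    (g ⊗ₖ c)ᵀ * Om4 F * (g ⊗ₖ c) = (g.det * c.det) • Om4 F := by
  rw [← Matrix.kroneckerMap_transpose]
  show gᵀ ⊗ₖ cᵀ * (JJ F ⊗ₖ JJ F) * (g ⊗ₖ c) = _
  rw [← Matrix.mul_kronecker_mul, ← Matrix.mul_kronecker_mul, yJy, yJy, Matrix.smul_kronecker,
    Matrix.kronecker_smul, smul_smul]

theorem om4_entry : Om4 F (0, 0) (1, 1) = 1 := by
  simp [Om4, JJ, Matrix.kroneckerMap_apply]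

/-- YK5 -/
theorem om4_swap_det (y : GL (Fin 2 × Fin 2) F) (μ : F)
    (hy : (y : Matrix _ _ F)ᵀ * Om4 F * (y : Matrix _ _ F) = μ • Om4 F)
    (hsw : ∀ X : Matrix (Fin 2) (Fin 2) F, ∃ X' : Matrix (Fin 2) (Fin 2) F,
      (y : Matrix _ _ F) * (X ⊗ₖ (1 : Matrix (Fin 2) (Fin 2) F)) * ((y⁻¹ : GL _ F) : Matrix _ _ F) =
        (1 : Matrix (Fin 2) (Fin 2) F) ⊗ₖ X') :
    (y : Matrix (Fin 2 × Fin 2) (Fin 2 × Fin 2) F).det = - μ ^ 2 := by
  set σ : Equiv.Perm (Fin 2 × Fin 2) := Equiv.prodComm (Fin 2) (Fin 2) with hσ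
  set Y : Matrix (Fin 2 × Fin 2) (Fin 2 × Fin 2) F :=
    (y : Matrix (Fin 2 × Fin 2) (Fin 2 × Fin 2) F) with hY
  set Y' : Matrix (Fin 2 × Fin 2) (Fin 2 × Fin 2) F :=
    ((y⁻¹ : GL (Fin 2 × Fin 2) F) : Matrix (Fin 2 × Fin 2) (Fin 2 × Fin 2) F) with hY'
  have hYY' : Y * Y' = 1 := by
    rw [hY, hY', ← Units.val_mul, mul_inv_cancel, Units.val_one]
  have hY'Y : Y' * Y = 1 := by
    rw [hY, hY', ← Units.val_mul, inv_mul_cancel, Units.val_one]
  have h1 : Y.submatrix σ id * Y'.submatrix id σ = 1 := by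
    have := Matrix.submatrix_mul_equiv Y Y' σ (Equiv.refl _) σ
    rw [hYY', Matrix.submatrix_one_equiv] at this
    exact this
  have h2 : Y'.submatrix id σ * Y.submatrix σ id = 1 := by
    have := Matrix.submatrix_mul_equiv Y' Y id σ id
    rw [hY'Y, Matrix.submatrix_id_id] at this
    exact this
  have hh : ∀ X : Matrix (Fin 2) (Fin 2) F, ∃ Z : Matrix (Fin 2) (Fin 2) F,
      Y.submatrix σ id * (X ⊗ₖ (1 : Matrix (Fin 2) (Fin 2) F)) * Y'.submatrix id σ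
        = Z ⊗ₖ (1 : Matrix (Fin 2) (Fin 2) F) := by
    intro X
    obtain ⟨X', hX'⟩ := hsw X
    refine ⟨X', ?_⟩
    have e1 : Y.submatrix σ id * (X ⊗ₖ (1 : Matrix (Fin 2) (Fin 2) F)) * Y'.submatrix id σ
        = (Y * (X ⊗ₖ (1 : Matrix (Fin 2) (Fin 2) F)) * Y').submatrix σ σ := by
      ext i j
      simp [Matrix.mul_apply, Matrix.submatrix_apply]
    rw [e1, hX']
    ext ⟨a, b⟩ ⟨c, d⟩
    simp [hσ, Matrix.kroneckerMap_apply, mul_comm]
  obtain ⟨g, c, hgc⟩ := Cfsg.Agent.Lib.Helper35.Asch.core 0 0 _ _ h1 h2 hh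
  have hOm : (Om4 F).submatrix σ σ = Om4 F := by
    ext ⟨a, b⟩ ⟨c, d⟩
    simp [hσ, Om4, Matrix.kroneckerMap_apply, mul_comm]
  have hform : (Y.submatrix σ id)ᵀ * Om4 F * Y.submatrix σ id = μ • Om4 F := by
    rw [← hy, Matrix.transpose_submatrix]
    nth_rewrite 1 [← hOm]
    rw [Matrix.submatrix_mul_equiv, Matrix.submatrix_mul_equiv, Matrix.submatrix_id_id]
  rw [hgc, om4_kron] at hform
  have hμ : μ = (g : Matrix (Fin 2) (Fin 2) F).det * (c : Matrix (Fin 2) (Fin 2) F).det := by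
    have := congrFun (congrFun hform (0, 0)) (1, 1)
    simp only [Matrix.smul_apply, om4_entry, smul_eq_mul, mul_one] at this
    exact this.symm
  have hdet := Matrix.det_permute σ Y
  rw [hgc, Matrix.det_kronecker] at hdet
  have hsign : Equiv.Perm.sign σ = -1 := by
    rw [hσ]; decide
  rw [hsign] at hdet
  simp only [Fintype.card_fin] at hdet
  push_cast at hdet
  rw [hμ]
  linear_combination hdet

end Cfsg.Agent.Lib.Helper62.OE
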