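import Cfsg.Agent.Lib.Helper79.Asch.D5
import Cfsg.Agent.Lib.Helper99.Sp.T3b
import Cfsg.Agent.Lib.Helper37.OE.YK3
import Cfsg.Agent.Lib.Helper62.OE.YK5
import Cfsg.Agent.Lib.Helper62.OE.Y4n

set_option autoImplicit false
set_option linter.unusedSectionVars false

/-! # Omega12+ (S5871): piece Y4 -/

namespace Cfsg.Agent.Lib.Helper62.OE

open Cfsg Cfsg.Geo Matrix Cfsg.Agent.Lib.Helper13.Asch
open Cfsg.Agent.Lib.Helper99.Sp
open Cfsg.Agent.Lib.Helper37.OE (Om4)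
open scoped Kronecker MatrixGroups commutatorElement

variable {F : Type*} [Field F]

theorem transpose_JJ_adj (X : Matrix (Fin 2) (Fin 2) F) : Xᵀ * JJ F = JJ F * X.adjugate := by
  rw [Matrix.adjugate_fin_two]
  ext i j
  fin_cases i <;> fin_cases j <;> simp [JJ, Matrix.mul_apply, Fin.sum_univ_two]

theorem om4_adj (X : Matrix (Fin 2) (Fin 2) F) :
    (X ⊗ₖ (1 : Matrix (Fin 2) (Fin 2) F))ᵀ * Om4 F
      = Om4 F * (X.adjugate ⊗ₖ (1 : Matrix (Fin 2) (Fin 2) F)) := by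
  rw [← Matrix.kroneckerMap_transpose]
  show Xᵀ ⊗ₖ (1 : Matrix (Fin 2) (Fin 2) F)ᵀ * (JJ F ⊗ₖ JJ F) = (JJ F ⊗ₖ JJ F) * _
  rw [← Matrix.mul_kronecker_mul, ← Matrix.mul_kronecker_mul, transpose_JJ_adj,
    Matrix.transpose_one, Matrix.one_mul, Matrix.mul_one]

/-- Y4 -/
theorem exists_quaternion_hom [Fintype F] (h2 : (2 : F) ≠ 0) (G : Matrix (Fin 4) (Fin 4) F)
    (hs : Gᵀ = G) (hu : IsUnit G.det)
    (hplus : ∃ U : Submodule F (Fin 4 → F), Module.finrank F U = 2 ∧ ∀ u ∈ U, u ⬝ᵥ (G *ᵥ u) = 0) :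
    ∃ ρ : Matrix (Fin 2) (Fin 2) F →ₐ[F] Matrix (Fin 4) (Fin 4) F,
      (∀ X, ∃ X', (ρ X)ᵀ * G = G * ρ X') ∧
      ∀ (y : GL (Fin 4) F) (μ : F), (y : Matrix _ _ F)ᵀ * G * (y : Matrix _ _ F) = μ • G →
        (y : Matrix (Fin 4) (Fin 4) F).det = μ ^ 2 →
        ∀ X, ∃ X', (y : Matrix _ _ F) * ρ X * ((y⁻¹ : GL _ F) : Matrix _ _ F) = ρ X' := by
  obtain ⟨R, hR⟩ := om4_normal_form h2 G hs hu hplus
  set E : Matrix (Fin 2 × Fin 2) (Fin 2 × Fin 2) F ≃ₐ[F] Matrix (Fin 4) (Fin 4) F :=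
    Matrix.reindexAlgEquiv F F (finProdFinEquiv : Fin 2 × Fin 2 ≃ Fin 4) with hE
  set Rm : Matrix (Fin 4) (Fin 4) F := (R : Matrix (Fin 4) (Fin 4) F) with hRm
  set Ri : Matrix (Fin 4) (Fin 4) F := ((R⁻¹ : GL (Fin 4) F) : Matrix (Fin 4) (Fin 4) F) with hRi
  have hRRi : Rm * Ri = 1 := by rw [hRm, hRi, ← Units.val_mul, mul_inv_cancel, Units.val_one]
  have hRiR : Ri * Rm = 1 := by rw [hRm, hRi, ← Units.val_mul, inv_mul_cancel, Units.val_one]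
  have hRRiT : Riᵀ * Rmᵀ = 1 := by rw [← Matrix.transpose_mul, hRRi, Matrix.transpose_one]
  have hRiRT : Rmᵀ * Riᵀ = 1 := by rw [← Matrix.transpose_mul, hRiR, Matrix.transpose_one]
  have hT : Rmᵀ * G * Rm = E (Om4 F) := hR
  have hET : ∀ M, (E M)ᵀ = E Mᵀ := fun M => rfl
  have hG : G = Riᵀ * E (Om4 F) * Ri := by
    rw [← hT]
    calc G = (Riᵀ * Rmᵀ) * G * (Rm * Ri) := by rw [hRRiT, hRRi, one_mul, mul_one]
      _ = _ := by simp only [mul_assoc]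
  refine ⟨Cfsg.Agent.Lib.Helper13.Asch.D5aux.embLHom (ι := Fin 4) (a := 2) (b := 2)
    (finProdFinEquiv : Fin 2 × Fin 2 ≃ Fin 4).symm R, ?_, ?_⟩
  · intro X
    refine ⟨X.adjugate, ?_⟩
    show (Rm * E (X ⊗ₖ (1 : Matrix (Fin 2) (Fin 2) F)) * Ri)ᵀ * G
      = G * (Rm * E (X.adjugate ⊗ₖ (1 : Matrix (Fin 2) (Fin 2) F)) * Ri)
    rw [Matrix.transpose_mul, Matrix.transpose_mul, hET]
    nth_rewrite 1 [hG]
    nth_rewrite 1 [hG]
    calc Riᵀ * (E (X ⊗ₖ (1 : Matrix (Fin 2) (Fin 2) F))ᵀ * Rmᵀ) * (Riᵀ * E (Om4 F) * Ri)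
        = Riᵀ * E (X ⊗ₖ (1 : Matrix (Fin 2) (Fin 2) F))ᵀ * (Rmᵀ * Riᵀ) * E (Om4 F) * Ri := by
          simp only [mul_assoc]
      _ = Riᵀ * E ((X ⊗ₖ (1 : Matrix (Fin 2) (Fin 2) F))ᵀ * Om4 F) * Ri := by
          rw [hRiRT, mul_one, map_mul]; simp only [mul_assoc]
      _ = Riᵀ * E (Om4 F) * (Ri * Rm) * E (X.adjugate ⊗ₖ (1 : Matrix (Fin 2) (Fin 2) F)) * Ri := by
          rw [om4_adj, map_mul, hRiR, mul_one]; simp only [mul_assoc]
      _ = _ := by simp only [mul_assoc]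
  · intro y μ hy hdet X
    set Y : Matrix (Fin 4) (Fin 4) F := (y : Matrix (Fin 4) (Fin 4) F) with hY
    set Yi : Matrix (Fin 4) (Fin 4) F := ((y⁻¹ : GL (Fin 4) F) : Matrix (Fin 4) (Fin 4) F) with hYi
    have hYYi : Y * Yi = 1 := by rw [hY, hYi, ← Units.val_mul, mul_inv_cancel, Units.val_one]
    have hYiY : Yi * Y = 1 := by rw [hY, hYi, ← Units.val_mul, inv_mul_cancel, Units.val_one]
    let y0 : GL (Fin 2 × Fin 2) F :=
      ⟨E.symm (Ri * Y * Rm), E.symm (Ri * Yi * Rm),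
        by
          rw [← map_mul]
          have : Ri * Y * Rm * (Ri * Yi * Rm) = Ri * Y * (Rm * Ri) * Yi * Rm := by
            simp only [mul_assoc]
          rw [this, hRRi, mul_one, mul_assoc Ri Y Yi, hYYi, mul_one, hRiR, map_one],
        by
          rw [← map_mul]
          have : Ri * Yi * Rm * (Ri * Y * Rm) = Ri * Yi * (Rm * Ri) * Y * Rm := by
            simp only [mul_assoc]
          rw [this, hRRi, mul_one, mul_assoc Ri Yi Y, hYiY, mul_one, hRiR, map_one]⟩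
    have hy0v : (y0 : Matrix (Fin 2 × Fin 2) (Fin 2 × Fin 2) F) = E.symm (Ri * Y * Rm) := rfl
    have hy0i : ((y0⁻¹ : GL (Fin 2 × Fin 2) F) : Matrix (Fin 2 × Fin 2) (Fin 2 × Fin 2) F)
        = E.symm (Ri * Yi * Rm) := rfl
    have hform : (y0 : Matrix (Fin 2 × Fin 2) (Fin 2 × Fin 2) F)ᵀ * Om4 F *
        (y0 : Matrix (Fin 2 × Fin 2) (Fin 2 × Fin 2) F) = μ • Om4 F := by
      apply E.injective
      rw [map_mul, map_mul, ← hET, hy0v, E.apply_symm_apply, map_smul, ← hT,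
        Matrix.transpose_mul, Matrix.transpose_mul]
      calc Rmᵀ * (Yᵀ * Riᵀ) * (Rmᵀ * G * Rm) * (Ri * Y * Rm)
          = Rmᵀ * Yᵀ * (Riᵀ * Rmᵀ) * G * (Rm * Ri) * Y * Rm := by simp only [mul_assoc]
        _ = Rmᵀ * (Yᵀ * G * Y) * Rm := by rw [hRRiT, hRRi, mul_one, mul_one]; simp only [mul_assoc]
        _ = _ := by rw [hy, Matrix.mul_smul, Matrix.smul_mul]
    have hdet0 : (y0 : Matrix (Fin 2 × Fin 2) (Fin 2 × Fin 2) F).det = μ ^ 2 := by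
      have h1 : (E (y0 : Matrix (Fin 2 × Fin 2) (Fin 2 × Fin 2) F)).det
          = (y0 : Matrix (Fin 2 × Fin 2) (Fin 2 × Fin 2) F).det := Matrix.det_reindexAlgEquiv _ _ _ _
      rw [← h1, hy0v, E.apply_symm_apply, Matrix.det_mul, Matrix.det_mul, mul_comm Ri.det,
        mul_assoc, ← Matrix.det_mul, hRiR, Matrix.det_one, mul_one, hdet]
    have hμ : μ ≠ 0 := by
      rintro rfl
      have h1 : Y.det * Yi.det = 1 := by rw [← Matrix.det_mul, hYYi, Matrix.det_one]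
      rw [hdet] at h1
      simp at h1
    have hcase : ∀ X : Matrix (Fin 2) (Fin 2) F, ∃ X' : Matrix (Fin 2) (Fin 2) F,
        (y0 : Matrix _ _ F) * (X ⊗ₖ (1 : Matrix (Fin 2) (Fin 2) F)) *
          ((y0⁻¹ : GL _ F) : Matrix _ _ F) = X' ⊗ₖ (1 : Matrix (Fin 2) (Fin 2) F) := by
      rcases Cfsg.Agent.Lib.Helper37.OE.om4_dichotomy h2 y0 μ hform with h | h
      · exact h
      · exfalso
        have h3 := om4_swap_det y0 μ hform h
        rw [hdet0] at h3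
        have h4 : (2 : F) * μ ^ 2 = 0 := by linear_combination h3
        rcases mul_eq_zero.1 h4 with h5 | h5
        · exact h2 h5
        · exact hμ (pow_eq_zero_iff (two_ne_zero) |>.1 h5)
    obtain ⟨X', hX'⟩ := hcase X
    refine ⟨X', ?_⟩
    show Y * (Rm * E (X ⊗ₖ (1 : Matrix (Fin 2) (Fin 2) F)) * Ri) * Yi
      = Rm * E (X' ⊗ₖ (1 : Matrix (Fin 2) (Fin 2) F)) * Ri
    rw [← hX', map_mul, map_mul, hy0v, hy0i, E.apply_symm_apply, E.apply_symm_apply]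
    calc Y * (Rm * E (X ⊗ₖ (1 : Matrix (Fin 2) (Fin 2) F)) * Ri) * Yi
        = (Rm * Ri) * Y * Rm * E (X ⊗ₖ (1 : Matrix (Fin 2) (Fin 2) F)) * Ri * Yi * (Rm * Ri) := by
          rw [hRRi, one_mul, mul_one]; simp only [mul_assoc]
      _ = _ := by simp only [mul_assoc]

end Cfsg.Agent.Lib.Helper62.OE
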