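import Cfsg.Agent.Lib.Helper57.OE.Rows8
import Cfsg.Agent.Lib.Helper57.OE.Defs2
import Cfsg.Agent.Lib.Helper90.OE.Defs
import Cfsg.Agent.Lib.Helper79.Asch.D5
import Cfsg.Agent.Lib.Helper99.Sp.T3b

set_option autoImplicit false
set_option linter.unusedSectionVars false

/-! # Omega12+ (S5871): piece YAL -/

namespace Cfsg.Agent.Lib.Helper62.OE

open Cfsg Cfsg.Geo Matrix Cfsg.Agent.Lib.Helper13.Asch Cfsg.Agent.Lib.Helper90.Sp
open Cfsg.Agent.Lib.Helper57.OE Cfsg.Agent.Lib.Helper99.Sp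
open scoped Kronecker MatrixGroups commutatorElement

variable {ι : Type} [Fintype ι] [DecidableEq ι] {F : Type*} [Field F] {Q : (ι → F) → F}

/-- a skew Gram matrix with zero diagonal gives a symplectic form (all characteristics) -/
theorem formOfGram_symplectic_diag {κ : Type} [Fintype κ] [DecidableEq κ] {G : Matrix κ κ F}
    (h : IsUnit G.det) (hs : Gᵀ = -G) (hd : ∀ i, G i i = 0) :
    IsSymplecticForm (formOfGram id G) := by
  have hskew : ∀ v w, formOfGram id G v w = - formOfGram id G w v := by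
    intro v w
    rw [formOfGram_swap, hs, formOfGram_neg]
  refine ⟨formOfGram_bilinear G, hskew, ?_, formOfGram_nondeg h⟩
  intro w
  have h1 : formOfGram id G w w = ∑ p : κ × κ, w p.1 * G p.1 p.2 * w p.2 := by
    rw [Fintype.sum_prod_type]
    rfl
  rw [h1]
  apply Finset.sum_involution (fun p _ => (p.2, p.1))
  · intro p _
    have : G p.2 p.1 = - G p.1 p.2 := by
      have := congrFun (congrFun hs p.1) p.2
      simpa using this
    show w p.1 * G p.1 p.2 * w p.2 + w p.2 * G p.2 p.1 * w p.1 = 0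
    rw [this]
    ring
  · intro p _ hp hpe
    apply hp
    have : p.2 = p.1 := congrArg Prod.fst hpe
    rw [this, hd]
    simp
  · intro p _
    exact Finset.mem_univ _
  · intro p _
    rfl

/-- YAL -/
theorem ralt_of_gram {H : Subgroup (GL ι F)} {b : ℕ}
    (e : ι ≃ Fin 2 × Fin b) (P : GL ι F)
    {G₁ : Matrix (Fin 2) (Fin 2) F} {G₂ : Matrix (Fin b) (Fin b) F}
    (hG : TensGram (QuadraticMap.polar Q) e P G₁ G₂) (h1 : IsUnit G₁.det) (h2 : IsUnit G₂.det)
    (hs1 : G₁ᵀ = -G₁) (hs2 : G₂ᵀ = -G₂) (hd1 : ∀ i, G₁ i i = 0) (hd2 : ∀ j, G₂ j j = 0)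
    (hpure : ∀ x y, Q (pureV e P x y) = 0) (hHt : H ≤ tensorProductSubgroup 2 b e P) :
    RAlt Q H := by
  refine ⟨b, e, P, formOfGram id G₁, formOfGram id G₂,
      formOfGram_symplectic_diag h1 hs1 hd1, formOfGram_symplectic_diag h2 hs2 hd2,
      ⟨1, one_ne_zero, ?_⟩, hpure, hHt⟩
  intro x y
  rw [gramMatrix_formOfGram, gramMatrix_formOfGram, one_mul]
  exact hG x y

end Cfsg.Agent.Lib.Helper62.OE
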