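import Cfsg.Agent.Lib.Helper57.OE.Rows8
import Cfsg.Agent.Lib.Helper57.OE.Defs2
import Cfsg.Agent.Lib.Helper90.OE.Defs
import Cfsg.Agent.Lib.Helper79.Asch.D5
import Cfsg.Agent.Lib.Helper99.Sp.T3b
import Cfsg.Agent.Lib.Helper12.OE.YCB

set_option autoImplicit false
set_option linter.unusedSectionVars false

/-! # Omega12+ (S5871): piece YT6 -/

namespace Cfsg.Agent.Lib.Helper62.OE

open Cfsg Cfsg.Geo Matrix Cfsg.Agent.Lib.Helper13.Asch Cfsg.Agent.Lib.Helper90.Sp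
open Cfsg.Agent.Lib.Helper57.OE Cfsg.Agent.Lib.Helper99.Sp
open scoped Kronecker MatrixGroups commutatorElement

variable {ι : Type} [Fintype ι] [DecidableEq ι] {F : Type*} [Field F] {Q : (ι → F) → F}

/-- YT6 -/
theorem o_tensor_two_pair [Fintype F] [Nonempty ι] (h2 : (2 : F) ≠ 0)
    (hQ : IsNondegenerateQuadraticForm Q) (hι : 2 < Fintype.card ι) {H : Subgroup (GL ι F)}
    (hH : FixesQuadForm (matrixSet H) Q) (hirr : ActsIrreducibly (matrixSet H)) {b : ℕ}
    (e : ι ≃ Fin 2 × Fin b) (P : GL ι F)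
    {G₁ : Matrix (Fin 2) (Fin 2) F} {G₂ : Matrix (Fin b) (Fin b) F}
    (hG : TensGram (QuadraticMap.polar Q) e P G₁ G₂) (h1 : IsUnit G₁.det) (h2' : IsUnit G₂.det)
    (hs1 : G₁ᵀ = G₁) (hHt : H ≤ tensorProductSubgroup 2 b e P) :
    RPair Q H ∨ SqrtJ H := by
  set K : Matrix (Fin 2 × Fin b) (Fin 2 × Fin b) F :=
    kap G₁ ⊗ₖ (1 : Matrix (Fin b) (Fin b) F) with hK
  set k : Matrix ι ι F := cj e P K with hkdef
  have hk : k * k = (-G₁.det) • 1 := by
    rw [hkdef, cj_mul, hK, ← Matrix.mul_kronecker_mul, Matrix.one_mul, kap_sq hs1,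
      Matrix.smul_kronecker, Matrix.one_kronecker_one, cj_smul, cj_one]
  have hpm : ∀ h ∈ H, (h : Matrix ι ι F) * k * ((h⁻¹ : GL ι F) : Matrix ι ι F) = k ∨
      (h : Matrix ι ι F) * k * ((h⁻¹ : GL ι F) : Matrix ι ι F) = -k := by
    intro h hh
    have hfix : ∀ u v, QuadraticMap.polar Q ((h : Matrix ι ι F) *ᵥ u) ((h : Matrix ι ι F) *ᵥ v) =
        QuadraticMap.polar Q u v := by
      intro u v
      have hq := hH (h : Matrix ι ι F) ⟨h, hh, rfl⟩
      unfold QuadraticMap.polar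
      rw [← Matrix.mulVec_add, hq, hq, hq]
    obtain ⟨x, y, c, hxy, hc1, _⟩ := tens_similitude e P hG h1 h2' h (hHt hh) hfix
    have hx : IsUnit (x : Matrix (Fin 2) (Fin 2) F).det :=
      (Matrix.isUnit_iff_isUnit_det _).1 x.isUnit
    have hcj : (h : Matrix ι ι F) = cj e P ((x : Matrix _ _ F) ⊗ₖ (y : Matrix _ _ F)) := hxy
    set m : F := (c : F) / (x : Matrix (Fin 2) (Fin 2) F).det with hm
    have hconj := kap_conj hs1 h1 hx hc1
    have hhk : (h : Matrix ι ι F) * k = m • (k * (h : Matrix ι ι F)) := by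
      rw [hcj, hkdef, cj_mul, cj_mul, hK, ← Matrix.mul_kronecker_mul, ← Matrix.mul_kronecker_mul,
        Matrix.mul_one, Matrix.one_mul, hconj, Matrix.smul_kronecker, cj_smul]
    have hi2 : (h : Matrix ι ι F) * ((h⁻¹ : GL ι F) : Matrix ι ι F) = 1 := by
      rw [← Units.val_mul, mul_inv_cancel, Units.val_one]
    have hconj2 : (h : Matrix ι ι F) * k * ((h⁻¹ : GL ι F) : Matrix ι ι F) = m • k := by
      rw [hhk, Matrix.smul_mul, mul_assoc, hi2, mul_one]
    have hmm : m * m = 1 := by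
      have e1 : ((h : Matrix ι ι F) * k * ((h⁻¹ : GL ι F) : Matrix ι ι F)) *
          ((h : Matrix ι ι F) * k * ((h⁻¹ : GL ι F) : Matrix ι ι F)) = (-G₁.det) • 1 := by
        have hi1 : ((h⁻¹ : GL ι F) : Matrix ι ι F) * (h : Matrix ι ι F) = 1 := by
          rw [← Units.val_mul, inv_mul_cancel, Units.val_one]
        calc _ = (h : Matrix ι ι F) * k * (((h⁻¹ : GL ι F) : Matrix ι ι F) * (h : Matrix ι ι F)) * k *
              ((h⁻¹ : GL ι F) : Matrix ι ι F) := by simp only [mul_assoc]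
          _ = (h : Matrix ι ι F) * (k * k) * ((h⁻¹ : GL ι F) : Matrix ι ι F) := by
              rw [hi1, mul_one]; simp only [mul_assoc]
          _ = _ := by rw [hk, Matrix.mul_smul, Matrix.smul_mul, mul_one, hi2]
      rw [hconj2, Matrix.smul_mul, Matrix.mul_smul, hk, smul_smul, smul_smul] at e1
      obtain ⟨i⟩ := ‹Nonempty ι›
      have e2 := congrFun (congrFun e1 i) i
      simp only [Matrix.smul_apply, Matrix.one_apply_eq, smul_eq_mul, mul_one] at e2
      have hd0 : -G₁.det ≠ 0 := neg_ne_zero.2 h1.ne_zero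
      exact mul_right_cancel₀ hd0 (by rw [e2, one_mul])
    have : (m - 1) * (m + 1) = 0 := by linear_combination hmm
    rcases mul_eq_zero.1 this with e | e
    · left
      rw [hconj2, sub_eq_zero.1 e, one_smul]
    · right
      rw [hconj2, eq_neg_of_add_eq_zero_left e, neg_smul, one_smul]
  by_cases hsq : IsSquare (-G₁.det)
  · left
    obtain ⟨s, hs⟩ := hsq
    have hs0 : s ≠ 0 := by
      rintro rfl
      rw [mul_zero] at hs
      exact neg_ne_zero.2 h1.ne_zero hs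
    have hKG : Kᵀ * (G₁ ⊗ₖ G₂) = -((G₁ ⊗ₖ G₂) * K) := by
      rw [hK, ← Matrix.kroneckerMap_transpose, ← Matrix.mul_kronecker_mul,
        ← Matrix.mul_kronecker_mul, Matrix.transpose_one, Matrix.one_mul, Matrix.mul_one,
        kapT_G hs1]
      ext p q
      simp [Matrix.kroneckerMap_apply]
    have hadjk : ∀ u v, QuadraticMap.polar Q (k *ᵥ u) v = - QuadraticMap.polar Q u (k *ᵥ v) := by
      intro u v
      obtain ⟨u', rfl⟩ := exists_coord e P u
      obtain ⟨v', rfl⟩ := exists_coord e P v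
      rw [hkdef, cj_mulVec, cj_mulVec, hG, hG, formOfGram_eq_gform, formOfGram_eq_gform]
      simp only [gform, RingHom.id_apply]
      have hGK : (G₁ ⊗ₖ G₂) * K = -(Kᵀ * (G₁ ⊗ₖ G₂)) := by rw [hKG, neg_neg]
      rw [Matrix.mulVec_mulVec, hGK, Matrix.neg_mulVec, dotProduct_neg, neg_neg,
        ← Matrix.mulVec_mulVec, Matrix.dotProduct_mulVec u' Kᵀ, Matrix.vecMul_transpose]
    have hbil := hQ.polar_bilinear
    have he1 : (1 : Matrix ι ι F) - ((2 : F)⁻¹ • (1 : Matrix ι ι F) + ((2 : F)⁻¹ * s⁻¹) • k)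
        = (2 : F)⁻¹ • (1 : Matrix ι ι F) + (-((2 : F)⁻¹ * s⁻¹)) • k := by
      have : (1 : Matrix ι ι F) = ((2 : F)⁻¹ + (2 : F)⁻¹) • (1 : Matrix ι ι F) := by
        rw [← two_mul, mul_inv_cancel₀ h2, one_smul]
      nth_rewrite 1 [this]
      module
    refine Cfsg.Agent.Lib.Helper12.OE.rpair_of_isotropic_idempotent hQ hι hH hirr
      ((2 : F)⁻¹ • (1 : Matrix ι ι F) + ((2 : F)⁻¹ * s⁻¹) • k) ?_ ?_ ?_
    · simp only [Matrix.add_mul, Matrix.mul_add, Matrix.smul_mul, Matrix.mul_smul, Matrix.one_mul,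
        Matrix.mul_one, hk, hs, smul_smul, smul_add]
      have c1 : (2 : F)⁻¹ * s⁻¹ * ((2 : F)⁻¹ * s⁻¹ * (s * s)) = (2 : F)⁻¹ * (2 : F)⁻¹ := by
        field_simp
      have c2 : (2 : F)⁻¹ * (2 : F)⁻¹ + (2 : F)⁻¹ * (2 : F)⁻¹ = (2 : F)⁻¹ := by
        field_simp; norm_num
      have c3 : (2 : F)⁻¹ * ((2 : F)⁻¹ * s⁻¹) + (2 : F)⁻¹ * s⁻¹ * (2 : F)⁻¹ = (2 : F)⁻¹ * s⁻¹ := by
        field_simp; norm_num
      rw [c1]
      calc _ = ((2 : F)⁻¹ * (2 : F)⁻¹ + (2 : F)⁻¹ * (2 : F)⁻¹) • (1 : Matrix ι ι F)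
            + ((2 : F)⁻¹ * ((2 : F)⁻¹ * s⁻¹) + (2 : F)⁻¹ * s⁻¹ * (2 : F)⁻¹) • k := by module
        _ = _ := by rw [c2, c3]
    · intro u v
      rw [he1]
      rw [Matrix.add_mulVec, Matrix.add_mulVec, Matrix.smul_mulVec, Matrix.smul_mulVec,
        Matrix.smul_mulVec, Matrix.smul_mulVec, Matrix.one_mulVec, Matrix.one_mulVec,
        hbil.add_left, hbil.add_right, hbil.smul_left, hbil.smul_left, hbil.smul_right,
        hbil.smul_right, hadjk]
      ring
    · intro h hh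
      have hi2 : (h : Matrix ι ι F) * ((h⁻¹ : GL ι F) : Matrix ι ι F) = 1 := by
        rw [← Units.val_mul, mul_inv_cancel, Units.val_one]
      have hexp : ∀ c d : F, (h : Matrix ι ι F) * (c • (1 : Matrix ι ι F) + d • k) *
          ((h⁻¹ : GL ι F) : Matrix ι ι F) = c • (1 : Matrix ι ι F) +
            d • ((h : Matrix ι ι F) * k * ((h⁻¹ : GL ι F) : Matrix ι ι F)) := by
        intro c d
        rw [Matrix.mul_add, Matrix.add_mul, Matrix.mul_smul, Matrix.smul_mul, Matrix.mul_one, hi2,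
          Matrix.mul_smul, Matrix.smul_mul]
      rw [hexp, he1]
      rcases hpm h hh with e | e
      · left; rw [e]
      · right; rw [e, smul_neg, neg_smul]
  · right
    exact ⟨k, -G₁.det, hk, hsq, hpm⟩

end Cfsg.Agent.Lib.Helper62.OE
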